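import Cfsg.Agent.H544.LQ.Defs
import Cfsg.Agent.H459.NonEll

/-!
# The frame of the Lie type rows (S4114, helper544)
-/

set_option autoImplicit false

namespace Cfsg.Agent.H544.LQ

open Cfsg Subgroup Cfsg.Agent.H459.Rad Cfsg.Agent.H459.Gallery Cfsg.Agent.H459.NonEll

/-- a (B, N)-pair of characteristic `p`: `B = N(U)`, `U` a Sylow `p`-subgroup, `B = U (B ∩ N)` solvable, core-free,
irreducible. -/
structure Frame {K : Type*} [Group K] [Finite K] (p : ℕ) [Fact p.Prime] (P : BNPair K) (U : Sylow p K) : Prop where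
  norm : normalizer ((U : Subgroup K) : Set K) = P.B
  cov : ∀ b ∈ P.B, ∃ u ∈ (U : Subgroup K), u⁻¹ * b ∈ P.N
  sol : Group.IsSolvable P.B
  core : P.B.normalCore = ⊥
  irr : Irr P

/-- `x` fixes all conjugates of the minimal parabolic subgroups containing a conjugate of `B` fixed by `x` -/
def TP {K : Type*} [Group K] (P : BNPair K) (x : MulAut K) : Prop :=
  ∀ g : K, Iv (cx x g) P.B → ∀ s ∈ P.S, Iv (cx x g) (P.parabolic {s})

end Cfsg.Agent.H544.LQ
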